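import Cfsg.Agent.OC.Def

/-! Interface of the project S4371 (statements only; never import this file in a shipped proof). -/

set_option autoImplicit false
set_option linter.unusedSectionVars false

namespace Cfsg.Agent.OC.I

open Subgroup Cfsg.Agent.MC Cfsg.Agent.OC

universe u
variable {G : Type u} [Group G] [Finite G]

/-! ### piece B (file OC/B.lean): basics -/
theorem TT_sub (h : TT G) (H : Subgroup G) : TT H := sorry
theorem TT_quo (h : TT G) (N : Subgroup G) [N.Normal] : TT (G ⧸ N) := sorry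
theorem TT_equiv {H : Type*} [Group H] (h : TT G) (e : G ≃* H) (x : H) :
    (orderOf x).primeFactorsList.length ≤ 2 := sorry
theorem TT_len (h : TT G) (x : G) : (orderOf x).primeFactorsList.length ≤ 2 := sorry
/-- orders divisible by `p`: if `m, n ≠ p` are multiples of `p` dividing element orders then `m = n` -/
theorem TT_two (h : TT G) {p m n : ℕ} (hp : p.Prime) {a b : G} (ha : m ∣ orderOf a) (hb : n ∣ orderOf b)
    (h1 : p ∣ m) (h2 : p ∣ n) (h3 : m ≠ p) (h4 : n ≠ p) : m = n := sorry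
theorem TT_cit (h : TT G) : CIT G ∨ ∃ r : ℕ, r.Prime ∧ r ≠ 2 ∧ ∃ x : G, orderOf x = 2 * r := sorry
theorem FM {V U : Subgroup G} {k : G} {n : ℕ} (hV : ∀ x ∈ V, ∀ y ∈ V, x * y = y * x)
    (h1 : U ≤ normalizer (V : Set G)) (h2 : k ∈ normalizer (V : Set G)) (h3 : k ∈ normalizer (U : Set G))
    (hc : Nat.Coprime (Nat.card U) (Nat.card V)) (hn : 0 < n)
    (hf : ∀ i, 0 < i → i < n → ∀ u ∈ U, u * k ^ i = k ^ i * u → u = 1)
    (hUV : ∃ v ∈ V, ∃ u ∈ U, u * v ≠ v * u) : ∃ v ∈ V, (v * k) ^ n ≠ k ^ n := sorry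
theorem EL {D : Subgroup G} (hD : IsPGroup 2 D) {μ x : G} (h1 : μ ∈ normalizer (D : Set G))
    (h2 : x ∈ normalizer (D : Set G)) (h3 : μ ^ 3 = 1) (h4 : x * x = 1) (h5 : x * μ * x = μ⁻¹)
    (h6 : ∀ d ∈ D, μ * d = d * μ → d = 1) (h7 : ∀ d ∈ D, (x * d) ^ 4 = 1) : ∀ d ∈ D, d * d = 1 := sorry
theorem SW {V A : Subgroup G} {q : ℕ} (h : Cf V A q) {y : G} (h1 : y ∈ normalizer ((V ⊔ A : Subgroup G) : Set G))
    (h2 : y * y ∈ V ⊔ A) (h3 : ∀ s ∈ V ⊔ A, (y * s) ^ 4 = 1) : y ∈ normalizer (V : Set G) := sorry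

/-! ### piece PG (file OC/PG.lean): more facts on `L₂(q)`, `L₃(4)` -/
section
variable {F : Type} [Field F] [Fintype F]
theorem F7 [CharP F 2] (Q : Sylow 2 (L2 F)) {w : L2 F} (h : w * w = 1)
    (hw : w ∉ normalizer ((Q : Subgroup (L2 F)) : Set (L2 F))) :
    ∃ s ∈ (Q : Subgroup (L2 F)), s ≠ 1 ∧ orderOf (s * w) = 3 := sorry
theorem F8 [CharP F 2] : OneCl (L2 F) ∧ ∀ x y : L2 F, orderOf x = 3 → orderOf y = 3 → IsConj x y := sorry
/-- the normalizer of a two-point stabilizer -/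
theorem F9 [CharP F 2] (h : 4 ≤ Fintype.card F) (Q : Sylow 2 (L2 F)) : ∃ (k w : L2 F),
    orderOf k + 1 = Fintype.card F ∧ k ∈ normalizer ((Q : Subgroup (L2 F)) : Set (L2 F)) ∧
    normalizer ((Q : Subgroup (L2 F)) : Set (L2 F)) = (Q : Subgroup (L2 F)) ⊔ zpowers k ∧
    (∀ s ∈ (Q : Subgroup (L2 F)), ∀ s' ∈ (Q : Subgroup (L2 F)), s ≠ 1 → s' ≠ 1 →
      ∃ c ∈ zpowers k, c * s * c⁻¹ = s') ∧
    w * w = 1 ∧ w * k * w⁻¹ = k⁻¹ ∧ w ∉ normalizer ((Q : Subgroup (L2 F)) : Set (L2 F)) := sorry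
end
theorem F34 (h : L34 G) : ∃ a b : G, orderOf a = 3 ∧ orderOf b = 3 ∧ a * b = b * a ∧ b ∉ zpowers a := sorry

/-! ### piece BE (files OC/BE.lean, OC/SZT.lean): Bender's theorem for CIT-groups -/
theorem SZT [IsSimpleGroup G] (hc : CIT G) {Q K : Subgroup G} {t : G} (h : H7.SZ ⊤ Q K K t) {n : ℕ} (hn : 1 ≤ n)
    (hQ : Nat.card Q = (2 ^ (2 * n + 1)) ^ 2) (hK : Nat.card K = 2 ^ (2 * n + 1) - 1)
    {F : Type} [Field F] [Fintype F] (hF : Fintype.card F = 2 ^ (2 * n + 1))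
    (ρ : G →* GL (Fin 4) F) (hρ : Function.Injective ρ) : SzD G := sorry
theorem BE [IsSimpleGroup G] (hna : ∃ a b : G, a * b ≠ b * a) (hc : CIT G) {M : Subgroup G}
    (hM : IsStronglyEmbedded M) :
    (∀ g ∉ M, ∀ h ∉ M, ∃ m ∈ M, h⁻¹ * (m * g) ∈ M) ∧ OneCl G ∧ (L2e G ∨ ((∃ x : G, orderOf x = 4) ∧ SzD G)) := sorry
theorem AB' [IsSimpleGroup G] (hna : ∃ a b : G, a * b ≠ b * a) (S : Sylow 2 G)
    (h1 : ∀ a ∈ (S : Subgroup G), ∀ b ∈ (S : Subgroup G), a * b = b * a)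
    (h2 : ∀ t : G, orderOf t = 2 → Group.IsSolvable (centralizer ({t} : Set G))) :
    L2e G ∨ (Nat.card (S : Subgroup G) = 4 ∧ (∀ a ∈ (S : Subgroup G), a * a = 1) ∧ OneCl G) := sorry

/-! ### piece A (files OC/A2.lean, A3.lean, A4.lean, A5.lean): CIT-groups -/
theorem A2 (hc : CIT G) {H T A : Subgroup G} (hD : pCore 2 H ≠ ⊥)
    (hi : ¬ Group.IsSolvable H → L2e (H ⧸ pCore 2 H)) (hT : FT.Syl 2 T H) (hn : ¬ H ≤ normalizer (T : Set G))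
    (hA : A ≤ T) (eA : ∀ x ∈ A, x * x = 1)
    (mA : ∀ B ≤ T, (∀ x ∈ B, x * x = 1) → Nat.card B ≤ Nat.card A) (hAD : ¬ A ≤ (pCore 2 H).map H.subtype) :
    ∃ q : ℕ, Cf ((pCore 2 H).map H.subtype) A q ∧ T = (pCore 2 H).map H.subtype ⊔ A ∧
      ((q = 2 ∧ ∃ ρ ∈ H, orderOf ρ = 3) ∨ Lc H ((pCore 2 H).map H.subtype) q) := sorry
theorem A3 (hc : CIT G) (hO : pCore 2 G = ⊥) (hi : IH2 G) (he : Even (Nat.card G)) :
    (∃ M : Subgroup G, IsStronglyEmbedded M) ∨ ∃ (V A : Subgroup G) (q : ℕ), Cf V A q ∧ FT.Syl 2 (V ⊔ A) ⊤ ∧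
      ((q = 2 ∧ ∃ ρ ∈ normalizer (V : Set G), orderOf ρ = 3) ∨ Lc (normalizer (V : Set G)) V q) := sorry
theorem A4 [IsSimpleGroup G] (hc : CIT G) {V A : Subgroup G} (h : Cf V A 2) (hS : FT.Syl 2 (V ⊔ A) ⊤) :
    OneCl G ∧ (∃ x : G, orderOf x = 4) ∧ L79 G := sorry
theorem A5 (hc : CIT G) (hO : pCore 2 G = ⊥) (hi : IH2 G) {V A : Subgroup G} {q : ℕ} (h : Cf V A q)
    (hS : FT.Syl 2 (V ⊔ A) ⊤) (hL : Lc (normalizer (V : Set G)) V q) :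
    q = 4 ∧ Lc (normalizer (A : Set G)) A 4 ∧ OneCl G := sorry

/-! ### piece L (files OC/La.lean, OC/Lb*.lean): `L₃(4)` -/
theorem La [IsSimpleGroup G] (hc : CIT G) {V A : Subgroup G} (h : Cf V A 4) (hS : FT.Syl 2 (V ⊔ A) ⊤)
    (h1 : Lc (normalizer (V : Set G)) V 4) (h2 : Lc (normalizer (A : Set G)) A 4) (h3 : OneCl G) :
    ∃ (Ω : Type u) (_ : MulAction G Ω) (𝓛 : Set (Set Ω)), PL G Ω 𝓛 := sorry
theorem Lb {Ω : Type u} [MulAction G Ω] {𝓛 : Set (Set Ω)} (h : PL G Ω 𝓛) : L34 G := sorry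

/-! ### piece S (files OC/SB.lean, OC/RD*.lean, OC/Main.lean) -/
theorem RDa (h : TT G) (hs : ¬ Group.IsSolvable G) {r : ℕ} (hr : r.Prime) (h2 : r ≠ 2) (N : Subgroup G)
    [N.Normal] (hN : IsPGroup r N) : N = ⊥ := sorry
theorem SB [IsSimpleGroup G] (hna : ∃ a b : G, a * b ≠ b * a) (h : TT G) {r : ℕ} (hr : r.Prime) (h2 : r ≠ 2)
    {x : G} (hx : orderOf x = 2 * r) : SC G := sorry
theorem SA [IsSimpleGroup G] (hna : ∃ a b : G, a * b ≠ b * a) (hc : CIT G) (hi : IH2 G) : SC G := sorry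
theorem RDb (h : TT G) (hs : ¬ Group.IsSolvable G) (hO : pCore 2 G ≠ ⊥) (h1 : IsSimpleGroup (G ⧸ pCore 2 G))
    (h2 : SC (G ⧸ pCore 2 G)) : L2e (G ⧸ pCore 2 G) := sorry
theorem RDc1 (h : TT G) {L : Subgroup G} [L.Normal] (hl : L.index.Prime) (h2 : L.index ≠ 2)
    (hC : centralizer (L : Set G) = ⊥) (h1 : IsSimpleGroup L) (h3 : SC L) : False := sorry
theorem RDc2 (h : TT G) (hi : IH2 G) {L : Subgroup G} [L.Normal] (h2 : L.index = 2)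
    (hC : centralizer (L : Set G) = ⊥) (h1 : IsSimpleGroup L) (h3 : SC L) : False := sorry
theorem main (h : TT G) (hs : ¬ Group.IsSolvable G) : Concl G := sorry

end Cfsg.Agent.OC.I
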